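import Cfsg.Agent.Lib.ToddCox.ON122760.Tab
set_option autoImplicit false
set_option maxRecDepth 100000
namespace Cfsg.Agent.Lib.ToddCox.ON122760
theorem a42 : allBits chkAll 10 43008 = true := by decide +kernel
theorem a43 : allBits chkAll 10 44032 = true := by decide +kernel
theorem a44 : allBits chkAll 10 45056 = true := by decide +kernel
theorem a45 : allBits chkAll 10 46080 = true := by decide +kernel
theorem a46 : allBits chkAll 10 47104 = true := by decide +kernel
theorem a47 : allBits chkAll 10 48128 = true := by decide +kernel
theorem a48 : allBits chkAll 10 49152 = true := by decide +kernel
theorem a49 : allBits chkAll 10 50176 = true := by decide +kernel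
theorem a50 : allBits chkAll 10 51200 = true := by decide +kernel
theorem a51 : allBits chkAll 10 52224 = true := by decide +kernel
theorem a52 : allBits chkAll 10 53248 = true := by decide +kernel
theorem a53 : allBits chkAll 10 54272 = true := by decide +kernel
theorem a54 : allBits chkAll 10 55296 = true := by decide +kernel
theorem a55 : allBits chkAll 10 56320 = true := by decide +kernel
theorem a56 : allBits chkAll 10 57344 = true := by decide +kernel
theorem a57 : allBits chkAll 10 58368 = true := by decide +kernel
theorem a58 : allBits chkAll 10 59392 = true := by decide +kernel
theorem a59 : allBits chkAll 10 60416 = true := by decide +kernel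
theorem a60 : allBits chkAll 10 61440 = true := by decide +kernel
theorem a61 : allBits chkAll 10 62464 = true := by decide +kernel
theorem a62 : allBits chkAll 10 63488 = true := by decide +kernel
end Cfsg.Agent.Lib.ToddCox.ON122760
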