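import Cfsg.Agent.Lib.ToddCox.ON122760.Tab
set_option autoImplicit false
set_option maxRecDepth 100000
namespace Cfsg.Agent.Lib.ToddCox.ON122760
theorem a63 : allBits chkAll 10 64512 = true := by decide +kernel
theorem a64 : allBits chkAll 10 65536 = true := by decide +kernel
theorem a65 : allBits chkAll 10 66560 = true := by decide +kernel
theorem a66 : allBits chkAll 10 67584 = true := by decide +kernel
theorem a67 : allBits chkAll 10 68608 = true := by decide +kernel
theorem a68 : allBits chkAll 10 69632 = true := by decide +kernel
theorem a69 : allBits chkAll 10 70656 = true := by decide +kernel
theorem a70 : allBits chkAll 10 71680 = true := by decide +kernel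
theorem a71 : allBits chkAll 10 72704 = true := by decide +kernel
theorem a72 : allBits chkAll 10 73728 = true := by decide +kernel
theorem a73 : allBits chkAll 10 74752 = true := by decide +kernel
theorem a74 : allBits chkAll 10 75776 = true := by decide +kernel
theorem a75 : allBits chkAll 10 76800 = true := by decide +kernel
theorem a76 : allBits chkAll 10 77824 = true := by decide +kernel
theorem a77 : allBits chkAll 10 78848 = true := by decide +kernel
theorem a78 : allBits chkAll 10 79872 = true := by decide +kernel
theorem a79 : allBits chkAll 10 80896 = true := by decide +kernel
theorem a80 : allBits chkAll 10 81920 = true := by decide +kernel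
theorem a81 : allBits chkAll 10 82944 = true := by decide +kernel
theorem a82 : allBits chkAll 10 83968 = true := by decide +kernel
theorem a83 : allBits chkAll 10 84992 = true := by decide +kernel
end Cfsg.Agent.Lib.ToddCox.ON122760
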