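import Cfsg.Agent.Lib.ToddCox.ON122760.Tab
set_option autoImplicit false
set_option maxRecDepth 100000
namespace Cfsg.Agent.Lib.ToddCox.ON122760
theorem a84 : allBits chkAll 10 86016 = true := by decide +kernel
theorem a85 : allBits chkAll 10 87040 = true := by decide +kernel
theorem a86 : allBits chkAll 10 88064 = true := by decide +kernel
theorem a87 : allBits chkAll 10 89088 = true := by decide +kernel
theorem a88 : allBits chkAll 10 90112 = true := by decide +kernel
theorem a89 : allBits chkAll 10 91136 = true := by decide +kernel
theorem a90 : allBits chkAll 10 92160 = true := by decide +kernel
theorem a91 : allBits chkAll 10 93184 = true := by decide +kernel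
theorem a92 : allBits chkAll 10 94208 = true := by decide +kernel
theorem a93 : allBits chkAll 10 95232 = true := by decide +kernel
theorem a94 : allBits chkAll 10 96256 = true := by decide +kernel
theorem a95 : allBits chkAll 10 97280 = true := by decide +kernel
theorem a96 : allBits chkAll 10 98304 = true := by decide +kernel
theorem a97 : allBits chkAll 10 99328 = true := by decide +kernel
theorem a98 : allBits chkAll 10 100352 = true := by decide +kernel
theorem a99 : allBits chkAll 10 101376 = true := by decide +kernel
theorem a100 : allBits chkAll 10 102400 = true := by decide +kernel
theorem a101 : allBits chkAll 10 103424 = true := by decide +kernel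
theorem a102 : allBits chkAll 10 104448 = true := by decide +kernel
theorem a103 : allBits chkAll 10 105472 = true := by decide +kernel
theorem a104 : allBits chkAll 10 106496 = true := by decide +kernel
end Cfsg.Agent.Lib.ToddCox.ON122760
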