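import Cfsg.Agent.Lib.ToddCox.ON122760.Tab
set_option autoImplicit false
set_option maxRecDepth 100000
namespace Cfsg.Agent.Lib.ToddCox.ON122760
theorem a105 : allBits chkAll 10 107520 = true := by decide +kernel
theorem a106 : allBits chkAll 10 108544 = true := by decide +kernel
theorem a107 : allBits chkAll 10 109568 = true := by decide +kernel
theorem a108 : allBits chkAll 10 110592 = true := by decide +kernel
theorem a109 : allBits chkAll 10 111616 = true := by decide +kernel
theorem a110 : allBits chkAll 10 112640 = true := by decide +kernel
theorem a111 : allBits chkAll 10 113664 = true := by decide +kernel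
theorem a112 : allBits chkAll 10 114688 = true := by decide +kernel
theorem a113 : allBits chkAll 10 115712 = true := by decide +kernel
theorem a114 : allBits chkAll 10 116736 = true := by decide +kernel
theorem a115 : allBits chkAll 10 117760 = true := by decide +kernel
theorem a116 : allBits chkAll 10 118784 = true := by decide +kernel
theorem a117 : allBits chkAll 10 119808 = true := by decide +kernel
theorem a118 : allBits chkAll 10 120832 = true := by decide +kernel
theorem a119 : allBits chkAll 10 121856 = true := by decide +kernel
theorem bk0 : allBits (fun i => bif (and (Nat.ble 0 i) (Nat.blt i 1)) then chkBlockPt tab Sw 0 1 i (pr i) else true) 17 0 = true := by decide +kernel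
theorem bk1 : allBits (fun i => bif (and (Nat.ble 1 i) (Nat.blt i 58654)) then chkBlockPt tab Sw 1 58654 i (pr i) else true) 17 0 = true := by decide +kernel
theorem bk2 : allBits (fun i => bif (and (Nat.ble 58654 i) (Nat.blt i 110790)) then chkBlockPt tab Sw 58654 110790 i (pr i) else true) 17 0 = true := by decide +kernel
theorem bk3 : allBits (fun i => bif (and (Nat.ble 110790 i) (Nat.blt i 116376)) then chkBlockPt tab Sw 110790 116376 i (pr i) else true) 17 0 = true := by decide +kernel
theorem bk4 : allBits (fun i => bif (and (Nat.ble 116376 i) (Nat.blt i 122760)) then chkBlockPt tab Sw 116376 122760 i (pr i) else true) 17 0 = true := by decide +kernel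
end Cfsg.Agent.Lib.ToddCox.ON122760
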