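import Cfsg.Agent.Lib.ToddCox.ON122760.TP0
import Cfsg.Agent.Lib.ToddCox.ON122760.TP1
import Cfsg.Agent.Lib.ToddCox.ON122760.TP2
import Cfsg.Agent.Lib.ToddCox.ON122760.TP3
import Cfsg.Agent.Lib.ToddCox.ON122760.TP4
import Cfsg.Agent.Lib.ToddCox.ON122760.TP5
set_option autoImplicit false
set_option maxRecDepth 100000
namespace Cfsg.Agent.Lib.ToddCox.ON122760
theorem allPts (i : ℕ) (hi : i < 122760) : chkAll i = true := by
  have hk : i / 1024 < 120 := by omega
  have key : ∀ j, j < 120 → allBits chkAll 10 (j * 2 ^ 10) = true := by
    intro j hj
    interval_cases j
    · exact a0
    · exact a1
    · exact a2
    · exact a3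
    · exact a4
    · exact a5
    · exact a6
    · exact a7
    · exact a8
    · exact a9
    · exact a10
    · exact a11
    · exact a12
    · exact a13
    · exact a14
    · exact a15
    · exact a16
    · exact a17
    · exact a18
    · exact a19
    · exact a20
    · exact a21
    · exact a22
    · exact a23
    · exact a24
    · exact a25
    · exact a26
    · exact a27
    · exact a28
    · exact a29
    · exact a30
    · exact a31
    · exact a32
    · exact a33
    · exact a34
    · exact a35
    · exact a36
    · exact a37
    · exact a38
    · exact a39
    · exact a40
    · exact a41
    · exact a42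
    · exact a43
    · exact a44
    · exact a45
    · exact a46
    · exact a47
    · exact a48
    · exact a49
    · exact a50
    · exact a51
    · exact a52
    · exact a53
    · exact a54
    · exact a55
    · exact a56
    · exact a57
    · exact a58
    · exact a59
    · exact a60
    · exact a61
    · exact a62
    · exact a63
    · exact a64
    · exact a65
    · exact a66
    · exact a67
    · exact a68
    · exact a69
    · exact a70
    · exact a71
    · exact a72
    · exact a73
    · exact a74
    · exact a75
    · exact a76
    · exact a77
    · exact a78
    · exact a79
    · exact a80
    · exact a81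
    · exact a82
    · exact a83
    · exact a84
    · exact a85
    · exact a86
    · exact a87
    · exact a88
    · exact a89
    · exact a90
    · exact a91
    · exact a92
    · exact a93
    · exact a94
    · exact a95
    · exact a96
    · exact a97
    · exact a98
    · exact a99
    · exact a100
    · exact a101
    · exact a102
    · exact a103
    · exact a104
    · exact a105
    · exact a106
    · exact a107
    · exact a108
    · exact a109
    · exact a110
    · exact a111
    · exact a112
    · exact a113
    · exact a114
    · exact a115
    · exact a116
    · exact a117
    · exact a118
    · exact a119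
  
  exact allBits_spec (key _ hk) i (Nat.div_mul_le_self i (2 ^ 10)) (by
    have := Nat.div_add_mod i (2 ^ 10)
    have h3 := Nat.mod_lt i (show 2 ^ 10 > 0 by positivity)
    rw [mul_comm] at this
    omega)
end Cfsg.Agent.Lib.ToddCox.ON122760
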